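import Cfsg.Agent.AutPSU.Card
import Cfsg.Agent.AutPSL.GraphTypes

/-!
# Involutory graph automorphisms of `PSU_n(q)` descend to those of `PSL_n(F₀)`, `|F₀| = q`

An involutory graph automorphism is `conj g * (x ↦ x ^ q)` with `g = ± gᵀ` unitary. Descent gives
`g ā = λ a` with `aᵀ ā = μ M` for a symmetric or skew matrix `M` over `F₀`; conjugacy and centralizers
under the inner-diagonal groups correspond.
-/

set_option autoImplicit false

namespace CfsgLib.AutPSU

open Matrix CfsgLib.Unitary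
open scoped MatrixGroups

variable {F F₀ : Type*} [Field F] [Field F₀] {n q : ℕ}

set_option quotPrecheck false in
local notation "GUn" => ↥(Cfsg.GU n F q)
local notation "PSUn" => Cfsg.PSU n F q
local notation "Matn" => Matrix (Fin n) (Fin n) F

/-- Being the data of the quadratic extension `F / F₀`. -/
structure QExt (q : ℕ) (σ : RingAut F) (e : F₀ →+* F) : Prop where
  ord : orderOf σ = 2
  frob : ∀ x, σ x = x ^ q
  fix : ∀ x, σ x = x ↔ ∃ y, e y = x

theorem exists_qext [Fintype F] [Fintype F₀] (hF : Fintype.card F = q ^ 2) (hF₀ : Fintype.card F₀ = q) :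
    ∃ (σ : RingAut F) (e : F₀ →+* F), QExt q σ e := by
  obtain ⟨p, k, hp, hp', hk, hq⟩ := exists_char hF
  haveI := Fact.mk hp
  have hF' : Fintype.card F = p ^ (2 * k) := by rw [hF, hq, ← pow_mul, mul_comm]
  obtain ⟨σ, hσ, hσq⟩ := AutPSL.exists_frobenius_involution hF' (by omega) (even_two_mul k)
  rw [Nat.mul_div_cancel_left _ two_pos, ← hq] at hσq
  obtain ⟨e, he⟩ := AutPSL.exists_fixed_embedding hF' hσ two_pos (dvd_mul_right 2 k) F₀
    (by rw [hF₀, Nat.mul_div_cancel_left _ two_pos, hq])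
  exact ⟨σ, e, hσ, hσq, he⟩

variable {σ : RingAut F} {e : F₀ →+* F}

namespace QExt

theorem sq (hx : QExt q σ e) (x : F) : σ (σ x) = x := AutPSL.sq_eq_one_of_orderOf hx.ord x

theorem apply_e (hx : QExt q σ e) (y : F₀) : σ (e y) = e y := (hx.fix _).2 ⟨y, rfl⟩

theorem map_map (hx : QExt q σ e) (A : Matn) : (A.map σ).map σ = A :=
  Matrix.ext fun i j => hx.sq (A i j)

theorem map_e (hx : QExt q σ e) (A : Matrix (Fin n) (Fin n) F₀) : (A.map e).map σ = A.map e :=
  Matrix.ext fun i j => hx.apply_e (A i j)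

theorem exists_descend (hx : QExt q σ e) {A : Matn} (hA : A.map σ = A) :
    ∃ B : Matrix (Fin n) (Fin n) F₀, B.map e = A := by
  choose b hb using fun i j => (hx.fix _).1 (congrFun (congrFun hA i) j)
  exact ⟨Matrix.of b, Matrix.ext hb⟩

theorem mem_GU_iff [Fintype F] (hx : QExt q σ e) (g : GL (Fin n) F) :
    g ∈ Cfsg.GU n F q ↔ g.1ᵀ * g.1.map σ = 1 := by
  rw [AutPSL.mem_GU_iff hx.ord hx.frob, mul_eq_one_comm]
  constructor <;> intro h <;> have h2 := congrArg (fun A : Matn => A.map σ) h <;>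
    simp only [Matrix.map_mul, Matrix.map_one _ (map_zero σ) (map_one σ), ← transpose_map, hx.map_map] at h2
  · exact h2
  · exact h2

theorem gmat_eq [Fintype F] (hx : QExt q σ e) (g : GUn) : (gmat g)ᵀ * (gmat g).map σ = 1 :=
  (hx.mem_GU_iff g.1).1 g.2

theorem exists_div (hx : QExt q σ e) {ε : F} (hε : ε * σ ε = 1) :
    ∃ ν : Fˣ, σ (ν : F) = ε * ν := by
  have hε0 : ε ≠ 0 := fun h => by rw [h, zero_mul] at hε; exact zero_ne_one hε
  obtain ⟨m, hm⟩ := AutPSL.exists_units_descent hx.ord two_pos (u := Units.mk0 ε hε0)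
    (Units.ext (by simpa [AutPSL.normProd] using hε))
  refine ⟨m⁻¹, ?_⟩
  have h := congrArg Units.val hm
  simp only [Units.val_mul, Units.val_mk0, AutPSL.coe_unitsAut] at h
  have h0 : σ (m : F) ≠ 0 := (map_ne_zero σ).2 m.ne_zero
  rw [Units.val_inv_eq_inv_val, map_inv₀]
  field_simp
  linear_combination -h

theorem exists_norm [Finite F] (hx : QExt q σ e) {s : F} (hs : s ≠ 0) (hfix : σ s = s) :
    ∃ ν : Fˣ, (ν : F) * σ (ν : F) = s := by
  obtain ⟨u, hu⟩ := AutPSL.exists_normProd_eq hx.ord two_pos (c := Units.mk0 s hs) hfix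
  exact ⟨u, by simpa [AutPSL.normProd] using congrArg Units.val hu⟩

end QExt

theorem smul_matrix_left_cancel {A : Matn} {c d : F} (hA : A ≠ 0) (h : c • A = d • A) : c = d := by
  obtain ⟨i, j, hij⟩ : ∃ i j, A i j ≠ 0 := by
    by_contra hcon
    push Not at hcon
    exact hA (Matrix.ext hcon)
  exact mul_right_cancel₀ hij (congrFun (congrFun h i) j)

theorem map_smul_matrix (f : F ≃+* F) (c : F) (A : Matn) : (c • A).map f = f c • A.map f :=
  Matrix.ext fun i j => map_mul f c (A i j)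

/-- The automorphism attached to a unitary matrix. -/
noncomputable def ugamma (σ : RingAut F) (g : GUn) : MulAut PSUn := conjPSU g * mapPSU σ

theorem conj_ugamma (h g : GUn) :
    conjPSU h * ugamma σ g * (conjPSU h)⁻¹ = ugamma σ (h * g * (mapGU σ h)⁻¹) := by
  have h1 : (mapPSU σ : MulAut PSUn) * (conjPSU h)⁻¹ = (conjPSU (mapGU σ h))⁻¹ * mapPSU σ := by
    rw [mul_inv_eq_iff_eq_mul, mul_assoc, mapPSU_mul_conjPSU, inv_mul_cancel_left]
  simp only [ugamma, conjPSU, map_mul, map_inv, mul_assoc] at h1 ⊢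
  rw [h1]

theorem ugamma_sq (g : GUn) :
    (ugamma σ g : MulAut PSUn) ^ 2 = conjPSU (g * mapGU σ g) * mapPSU (σ * σ) := by
  rw [pow_two, ugamma, twist_twist]

variable [Fintype F] [NeZero n]

theorem gmat_ne_zero (g : GUn) : gmat g ≠ 0 := Units.ne_zero g.1

theorem conjPSU_eq_iff (hF : Fintype.card F = q ^ 2) (hn : 3 ≤ n) (x y : GUn) :
    (conjPSU x : MulAut PSUn) = conjPSU y ↔ ∃ c : F, gmat x = c • gmat y := by
  obtain ⟨m, rfl⟩ : ∃ m, n = m + 2 := ⟨n - 2, by omega⟩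
  constructor
  · intro h
    obtain ⟨c, hc⟩ := exists_scalar_of_conj_eq_one hF (by omega) (g := x * y⁻¹)
      (by rw [conjPSU, map_mul, map_inv]; exact mul_inv_eq_one.2 h)
    refine ⟨c, ?_⟩
    calc gmat x = gmat (x * y⁻¹) * gmat y := by
          show _ = ((x * y⁻¹ * y : ↥(Cfsg.GU (m + 2) F q)) : GL (Fin (m + 2)) F).1
          rw [inv_mul_cancel_right]
      _ = _ := by rw [hc, Matrix.scalar_apply, ← Matrix.smul_eq_diagonal_mul]
  · rintro ⟨c, hc⟩
    have h : gmat (x * y⁻¹) = Matrix.scalar (Fin (m + 2)) c := by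
      show gmat x * gmat y⁻¹ = _
      rw [hc, Matrix.smul_mul, gmat_mul_inv, Matrix.scalar_apply, Matrix.smul_one_eq_diagonal]
    have := conjPSU_eq_one_of_scalar h
    rw [conjPSU, map_mul, map_inv, mul_inv_eq_one] at this
    exact this

/-- `h` carries the automorphism of `g` to that of `g'`. -/
def Rel (σ : RingAut F) (h g g' : GUn) : Prop :=
  ∃ c : F, gmat h * gmat g = c • (gmat g' * (gmat h).map σ)

theorem conj_eq_iff (hF : Fintype.card F = q ^ 2) (hn : 3 ≤ n) (h g g' : GUn) :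
    conjPSU h * ugamma σ g * (conjPSU h)⁻¹ = ugamma σ g' ↔ Rel σ h g g' := by
  rw [conj_ugamma, ugamma, ugamma, mul_left_inj, conjPSU_eq_iff hF hn]
  refine exists_congr fun c => ?_
  have e1 : gmat (h * g * (mapGU σ h)⁻¹) = gmat h * gmat g * gmat (mapGU σ h)⁻¹ := rfl
  rw [e1]
  constructor
  · intro hc
    calc gmat h * gmat g = gmat h * gmat g * gmat (mapGU σ h)⁻¹ * gmat (mapGU σ h) := by
          rw [mul_assoc _ (gmat (mapGU σ h)⁻¹), gmat_inv_mul, mul_one]
      _ = _ := by rw [hc, Matrix.smul_mul, gmat_mapGU]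
  · intro hc
    rw [hc, Matrix.smul_mul, mul_assoc, ← gmat_mapGU, gmat_mul_inv, mul_one]

/-- The descent relation. -/
def Desc (σ : RingAut F) (e : F₀ →+* F) (g : GUn) (M : GL (Fin n) F₀) : Prop :=
  ∃ (a : GL (Fin n) F) (l μ : Fˣ),
    gmat g * a.1.map σ = (l : F) • a.1 ∧ a.1ᵀ * a.1.map σ = (μ : F) • M.1.map e

/-- Data for a descent. -/
structure DescData (σ : RingAut F) (e : F₀ →+* F) (g : GUn) (M : GL (Fin n) F₀)
    (a : GL (Fin n) F) (l μ : Fˣ) : Prop where
  eqn : gmat g * a.1.map σ = (l : F) • a.1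
  gram : a.1ᵀ * a.1.map σ = (μ : F) • M.1.map e

variable (hF : Fintype.card F = q ^ 2) (hn : 3 ≤ n) (hx : QExt q σ e)
  {g g' : ↥(Cfsg.GU n F q)} {M M' : GL (Fin n) F₀} {a a' : GL (Fin n) F} {l l' μ μ' : Fˣ}

omit [Fintype F] in
theorem map_ne_zero_GL (M : GL (Fin n) F₀) : M.1.map e ≠ 0 := fun h =>
  Units.ne_zero M (Matrix.map_injective e.injective (h.trans (Matrix.map_zero _ (map_zero e)).symm))

include hx in
/-- A conjugating element gives a similitude over `F₀`. -/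
theorem exists_sim_of_rel (d : DescData σ e g M a l μ) (d' : DescData σ e g' M' a' l' μ') {h : GUn}
    (hr : Rel σ h g g') :
    ∃ (ν : Fˣ) (b : GL (Fin n) F₀) (c : F₀ˣ), b.1ᵀ * M'.1 * b.1 = (c : F₀) • M.1 ∧
      gmat h * a.1 = (ν : F) • (a'.1 * b.1.map e) ∧ (μ : F) = ν * σ ν * μ' * e c := by
  obtain ⟨c, hc⟩ := hr
  set b₁ : Matn := (a'⁻¹).1 * (gmat h * a.1) with hb₁
  have hab : gmat h * a.1 = a'.1 * b₁ := by rw [hb₁, ← mul_assoc, Units.mul_inv, one_mul]
  have hb₁σ : ((l' : F) * c) • b₁.map σ = (l : F) • b₁ := by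
    have h1 : gmat h * (gmat g * a.1.map σ) = c • (gmat g' * (gmat h * a.1).map σ) := by
      rw [Matrix.map_mul, ← mul_assoc, hc, Matrix.smul_mul, mul_assoc]
    rw [d.eqn, hab, Matrix.map_mul, ← mul_assoc (gmat g'), d'.eqn, Matrix.mul_smul, hab, Matrix.smul_mul,
      smul_smul] at h1
    have h2 := congrArg (fun X => (a'⁻¹).1 * X) h1
    simp only [Matrix.mul_smul, ← mul_assoc, Units.inv_mul, one_mul] at h2
    rw [h2, mul_comm]
  have hb0 : b₁ ≠ 0 := fun h0 => by
    have h1 : gmat h * a.1 = 0 := by rw [hab, h0, mul_zero]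
    exact Units.ne_zero (h.1 * a) h1
  have hlc : (l' : F) * c ≠ 0 := fun h0 => by
    rw [h0, zero_smul] at hb₁σ
    exact (smul_eq_zero.1 hb₁σ.symm).elim l.ne_zero hb0
  set ε : F := (l : F) / (l' * c) with hεdef
  have hε : b₁.map σ = ε • b₁ := by
    rw [hεdef, div_eq_inv_mul, mul_smul, ← hb₁σ, smul_smul, inv_mul_cancel₀ hlc, one_smul]
  have hεN : ε * σ ε = 1 := by
    have h1 : b₁ = (σ ε * ε) • b₁ := by
      conv_lhs => rw [← hx.map_map b₁, hε, map_smul_matrix σ, hε,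
        smul_smul]
    rw [mul_comm]
    exact (smul_matrix_left_cancel hb0 ((one_smul F b₁).trans h1)).symm
  obtain ⟨ν, hν⟩ := hx.exists_div hεN
  obtain ⟨B, hB⟩ := hx.exists_descend (A := ((ν : F)⁻¹) • b₁) (by
    rw [map_smul_matrix σ, hε, smul_smul]
    congr 1
    show σ (ν : F)⁻¹ * ε = _
    rw [map_inv₀, hν]
    have : ε ≠ 0 := fun h0 => by rw [h0, zero_mul] at hεN; exact zero_ne_one hεN
    field_simp)
  have hb₁B : b₁ = (ν : F) • B.map e := by rw [hB, smul_smul, mul_inv_cancel₀ ν.ne_zero, one_smul]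
  have hdetB : B.det ≠ 0 := fun h0 => by
    have h1 : b₁.det = 0 := by
      rw [hb₁B, Matrix.det_smul, ← RingHom.mapMatrix_apply, ← RingHom.map_det, h0, map_zero, mul_zero]
    have h2 : IsUnit b₁.det := by
      rw [hb₁]; exact (Matrix.GeneralLinearGroup.det (a'⁻¹ * (h.1 * a))).isUnit
    exact h2.ne_zero h1
  let b : GL (Fin n) F₀ := Matrix.GeneralLinearGroup.mkOfDetNeZero B hdetB
  have hha : gmat h * a.1 = (ν : F) • (a'.1 * B.map e) := by rw [hab, hb₁B, Matrix.mul_smul]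
  have hgram : (μ : F) • M.1.map e = ((ν : F) * σ ν * μ') • (Bᵀ * M'.1 * B).map e := by
    rw [← d.gram]
    calc a.1ᵀ * a.1.map σ = (gmat h * a.1)ᵀ * (gmat h * a.1).map σ := by
          rw [transpose_mul, Matrix.map_mul, mul_assoc, ← mul_assoc (gmat h)ᵀ, hx.gmat_eq, one_mul]
      _ = _ := by
          rw [hha, transpose_smul, transpose_mul, map_smul_matrix σ, Matrix.map_mul, hx.map_e,
            Matrix.smul_mul, Matrix.mul_smul, mul_assoc, ← mul_assoc a'.1ᵀ, d'.gram, Matrix.smul_mul,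
            Matrix.mul_smul, Matrix.map_mul, Matrix.map_mul, transpose_map, smul_smul, smul_smul, mul_assoc]
          simp only [mul_assoc]
  obtain ⟨i, j, hij⟩ : ∃ i j, M.1 i j ≠ 0 := by
    by_contra hcon
    push Not at hcon
    exact Units.ne_zero M (Matrix.ext hcon)
  have hij' := congrFun (congrFun hgram i) j
  simp only [Matrix.smul_apply, Matrix.map_apply, smul_eq_mul] at hij'
  set t := (Bᵀ * M'.1 * B) i j with ht
  have hN : (ν : F) * σ ν * μ' ≠ 0 :=
    mul_ne_zero (mul_ne_zero ν.ne_zero ((map_ne_zero σ).2 ν.ne_zero)) μ'.ne_zero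
  have ht0 : t ≠ 0 := fun h0 => by
    rw [h0, map_zero, mul_zero] at hij'
    exact (mul_eq_zero.1 hij').elim μ.ne_zero (fun h1 => hij (e.injective (by rw [h1, map_zero])))
  have hμ : (μ : F) = (ν : F) * σ ν * μ' * e (t / M.1 i j) := by
    rw [map_div₀, ← mul_div_assoc, ← hij', mul_div_assoc, div_self ((map_ne_zero e).2 hij), mul_one]
  refine ⟨ν, b, Units.mk0 (t / M.1 i j) (div_ne_zero ht0 hij), ?_, hha, hμ⟩
  refine Matrix.map_injective e.injective ?_
  refine (smul_right_injective Matn hN) ?_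
  show ((ν : F) * σ ν * μ') • (Bᵀ * M'.1 * B).map e = _
  rw [← hgram, hμ]
  ext i' j'
  simp [mul_assoc]

include hx in
/-- A similitude over `F₀` gives a conjugating element. -/
theorem exists_rel_of_sim (d : DescData σ e g M a l μ) (d' : DescData σ e g' M' a' l' μ')
    {b : GL (Fin n) F₀} {c : F₀ˣ} (hb : b.1ᵀ * M'.1 * b.1 = (c : F₀) • M.1) :
    ∃ (h : GUn) (ν : Fˣ), Rel σ h g g' ∧ gmat h * a.1 = (ν : F) • (a'.1 * b.1.map e) ∧
      (μ : F) = ν * σ ν * μ' * e c := by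
  set h₀ : GL (Fin n) F := a' * Matrix.GeneralLinearGroup.map e b * a⁻¹ with hh₀
  have hh₀a : h₀.1 * a.1 = a'.1 * b.1.map e := by
    rw [← Units.val_mul, hh₀, inv_mul_cancel_right]; rfl
  set s : F := μ' * e c / μ with hs
  have hgram : a.1ᵀ * (h₀.1ᵀ * h₀.1.map σ) * a.1.map σ = s • (a.1ᵀ * a.1.map σ) := by
    calc _ = (h₀.1 * a.1)ᵀ * (h₀.1 * a.1).map σ := by
          rw [transpose_mul, Matrix.map_mul]; simp only [mul_assoc]
      _ = (μ' : F) • (b.1ᵀ * M'.1 * b.1).map e := by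
          rw [hh₀a, transpose_mul, Matrix.map_mul, hx.map_e, mul_assoc, ← mul_assoc a'.1ᵀ, d'.gram,
            Matrix.smul_mul, Matrix.mul_smul, Matrix.map_mul, Matrix.map_mul, transpose_map, mul_assoc]
      _ = _ := by
          rw [hb, d.gram, smul_smul, hs, div_mul_cancel₀ _ μ.ne_zero]
          ext i j
          simp [mul_assoc]
  have hh₀s : h₀.1ᵀ * h₀.1.map σ = s • (1 : Matn) := by
    have haσ : a.1.map σ * (a⁻¹).1.map σ = 1 := by
      rw [← Matrix.map_mul, Units.mul_inv, Matrix.map_one _ (map_zero σ) (map_one σ)]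
    have h1 := congrArg (fun X => (a⁻¹).1ᵀ * X * (a⁻¹).1.map σ) hgram
    have e1 : (a⁻¹).1ᵀ * a.1ᵀ = 1 := by rw [← transpose_mul, Units.mul_inv, transpose_one]
    simp only [Matrix.mul_smul, Matrix.smul_mul, ← mul_assoc, e1, one_mul] at h1
    simp only [mul_assoc, haσ, mul_one] at h1
    exact h1
  have hs0 : s ≠ 0 := div_ne_zero (mul_ne_zero μ'.ne_zero ((map_ne_zero e).2 c.ne_zero)) μ.ne_zero
  have hsfix : σ s = s := by
    have h1 := congrArg (fun X : Matn => (X.map σ)ᵀ) hh₀s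
    simp only [Matrix.map_mul, transpose_mul, ← transpose_map, transpose_transpose, hx.map_map] at h1
    rw [hh₀s] at h1
    have h2 := congrFun (congrFun h1 0) 0
    simpa using h2.symm
  obtain ⟨ν, hν⟩ := hx.exists_norm (inv_ne_zero hs0) (by rw [map_inv₀, hsfix])
  let hg : GL (Fin n) F := Matrix.GeneralLinearGroup.scalar (Fin n) ν * h₀
  have hgv : hg.1 = (ν : F) • h₀.1 := AutPSL.scalar_mul_val ν h₀
  have hmem : hg ∈ Cfsg.GU n F q := by
    rw [hx.mem_GU_iff, hgv, transpose_smul, map_smul_matrix σ, Matrix.smul_mul, Matrix.mul_smul, hh₀s, smul_smul,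
      smul_smul]
    have : (ν : F) * σ (ν : F) * s = 1 := by
      rw [hν, inv_mul_cancel₀ hs0]
    rw [this, one_smul]
  have hha : hg.1 * a.1 = (ν : F) • (a'.1 * b.1.map e) := by rw [hgv, Matrix.smul_mul, hh₀a]
  refine ⟨⟨hg, hmem⟩, ν, ?_, hha, ?_⟩
  · refine ⟨(l : F) * ν / (σ ν * l'), ?_⟩
    have hne : σ (ν : F) * l' ≠ 0 := mul_ne_zero ((map_ne_zero σ).2 ν.ne_zero) l'.ne_zero
    have hu : ∀ X Y : Matn, X * a.1.map σ = Y * a.1.map σ → X = Y := fun X Y hXY => by
      have haσ : a.1.map σ * (a⁻¹).1.map σ = 1 := by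
        rw [← Matrix.map_mul, Units.mul_inv, Matrix.map_one _ (map_zero σ) (map_one σ)]
      have h1 := congrArg (fun Z => Z * (a⁻¹).1.map σ) hXY
      simp only [mul_assoc, haσ, mul_one] at h1
      exact h1
    refine hu _ _ ?_
    show hg.1 * gmat g * a.1.map σ = _ • (gmat g' * hg.1.map σ) * a.1.map σ
    rw [mul_assoc, d.eqn, Matrix.mul_smul, hha, smul_smul, Matrix.smul_mul, mul_assoc (gmat g'),
      ← Matrix.map_mul, hha, map_smul_matrix σ, Matrix.map_mul,
      hx.map_e, Matrix.mul_smul, ← mul_assoc (gmat g'), d'.eqn, Matrix.smul_mul, smul_smul, smul_smul]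
    congr 1
    rw [mul_assoc, div_mul_cancel₀ _ hne]
  · have : (ν : F) * σ ν = μ / (μ' * e c) := by rw [hν, hs, inv_div]
    rw [mul_assoc _ (μ' : F), this, div_mul_cancel₀ _ (mul_ne_zero μ'.ne_zero ((map_ne_zero e).2 c.ne_zero))]

theorem descData_iff : Desc σ e g M ↔ ∃ a l μ, DescData σ e g M a l μ :=
  exists_congr fun a => exists_congr fun l => exists_congr fun μ => ⟨fun h => ⟨h.1, h.2⟩, fun h => ⟨h.1, h.2⟩⟩

include hF hn hx in
/-- Conjugacy corresponds. -/
theorem ugamma_isConj_iff [Fintype F₀] (d : Desc σ e g M) (d' : Desc σ e g' M') :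
    Cfsg.IsConjUnder (Cfsg.inndiagPSU n F q) (ugamma σ g) (ugamma σ g') ↔
      Cfsg.IsConjUnder (Cfsg.inndiagPSL n F₀) (AutPSL.gamma M) (AutPSL.gamma M') := by
  obtain ⟨a, l, μ, d⟩ := descData_iff.1 d
  obtain ⟨a', l', μ', d'⟩ := descData_iff.1 d'
  rw [inndiag_eq_range]
  constructor
  · rintro ⟨_, ⟨h, rfl⟩, heq⟩
    obtain ⟨ν, b, c, hb, -, -⟩ := exists_sim_of_rel hx d d' ((conj_eq_iff hF hn h g g').1 heq.symm)
    refine AutPSL.isConjUnder_symm ((AutPSL.gamma_isConj_iff (by omega) _ _).2 ⟨c, ⟨(AutPSL.invTrGL b)⁻¹, ?_⟩⟩)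
    rw [AutPSL.coe_invTrGL_inv, transpose_transpose, hb]
  · intro hc
    obtain ⟨c, b, hb⟩ := (AutPSL.gamma_isConj_iff (by omega) _ _).1 (AutPSL.isConjUnder_symm hc)
    obtain ⟨h, -, hr, -, -⟩ := exists_rel_of_sim hx d d' (b := (AutPSL.invTrGL b)⁻¹) (c := c)
      (by rw [AutPSL.coe_invTrGL_inv, transpose_transpose, hb])
    exact ⟨conjPSU h, ⟨h, rfl⟩, ((conj_eq_iff hF hn h g g').2 hr).symm⟩

include hF hn hx in
/-- Centralizers correspond. -/
theorem ugamma_centralizer [Fintype F₀] (d : Desc σ e g M) :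
    Nonempty (↥(Cfsg.inndiagPSU n F q ⊓ Subgroup.centralizer {(ugamma σ g : MulAut PSUn)}) ≃*
      ↥(Cfsg.inndiagPSL n F₀ ⊓ Subgroup.centralizer
        {(AutPSL.gamma M : MulAut (Matrix.ProjectiveSpecialLinearGroup (Fin n) F₀))})) := by
  classical
  obtain ⟨a, l, μ, d⟩ := descData_iff.1 d
  obtain ⟨f⟩ := AutPSL.gamma_centralizer_subgroup (F := F₀) (by omega : 2 ≤ n) M.1 (Equiv.refl (Fin n)) M rfl
    (H := AutPSL.sim M.1) rfl
  have hex : ∀ b : ↥(AutPSL.sim M.1), ∃ (h : GUn) (ν : Fˣ), Rel σ h g g ∧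
      gmat h * a.1 = (ν : F) • (a.1 * b.1.1.map e) := fun b => by
    obtain ⟨c, hc⟩ := AutPSL.mem_sim.1 b.2
    obtain ⟨h, ν, h1, h2, -⟩ := exists_rel_of_sim hx d d hc
    exact ⟨h, ν, h1, h2⟩
  choose H N hH1 hH2 using hex
  have hprop : ∀ {h h' : GUn} {B : Matn} {s t : F}, t ≠ 0 → gmat h * a.1 = s • B → gmat h' * a.1 = t • B →
      (conjPSU h : MulAut PSUn) = conjPSU h' := by
    intro h h' B s t ht e1 e2
    refine (conjPSU_eq_iff hF hn h h').2 ⟨s / t, ?_⟩
    have e3 : gmat h * a.1 = (s / t) • gmat h' * a.1 := by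
      rw [Matrix.smul_mul, e1, e2, smul_smul, div_mul_cancel₀ _ ht]
    have := congrArg (fun X => X * (a⁻¹).1) e3
    simpa [mul_assoc] using this
  let ρ : ↥(AutPSL.sim M.1) →* MulAut PSUn := MonoidHom.mk' (fun b => conjPSU (H b)) fun b b' => by
    rw [conjPSU, conjPSU, conjPSU, ← map_mul]
    refine hprop (mul_ne_zero (N b).ne_zero (N b').ne_zero) (hH2 (b * b')) ?_
    show gmat (H b) * gmat (H b') * a.1 = _
    rw [mul_assoc, hH2 b', Matrix.mul_smul, ← mul_assoc, hH2 b, Matrix.smul_mul, smul_smul, mul_assoc,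
      mul_comm (N b' : F)]
    congr 2
    show b.1.1.map e * b'.1.1.map e = (b.1.1 * b'.1.1).map e
    rw [Matrix.map_mul]
  have hrange : ρ.range = Cfsg.inndiagPSU n F q ⊓ Subgroup.centralizer {(ugamma σ g : MulAut PSUn)} := by
    rw [inndiag_eq_range]
    ext β
    rw [Subgroup.mem_inf, Subgroup.mem_centralizer_singleton_iff]
    constructor
    · rintro ⟨b, rfl⟩
      exact ⟨⟨H b, rfl⟩, mul_inv_eq_iff_eq_mul.1 ((conj_eq_iff hF hn _ g g).2 (hH1 b))⟩
    · rintro ⟨⟨h, rfl⟩, hg⟩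
      obtain ⟨ν, b, c, hb, hha, -⟩ :=
        exists_sim_of_rel hx d d ((conj_eq_iff hF hn h g g).1 (mul_inv_eq_iff_eq_mul.2 hg))
      exact ⟨⟨b, c, hb⟩, hprop ν.ne_zero (hH2 ⟨b, c, hb⟩) hha⟩
  have hker : ρ.ker = (Cfsg.Geo.scalars (Fin n) F₀).subgroupOf (AutPSL.sim M.1) := by
    ext b
    rw [MonoidHom.mem_ker, Subgroup.mem_subgroupOf, AutPSL.mem_scalars_iff']
    constructor
    · intro hb
      have hb' : (conjPSU (H b) : MulAut PSUn) = conjPSU 1 := hb.trans (map_one conjPSUHom).symm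
      obtain ⟨s, hs⟩ := (conjPSU_eq_iff hF hn _ _).1 hb'
      have h1 := hH2 b
      rw [hs, show gmat (1 : GUn) = 1 from rfl, Matrix.smul_mul, one_mul] at h1
      have h2 := congrArg (fun X => (a⁻¹).1 * X) h1
      simp only [Matrix.mul_smul, ← mul_assoc, Units.inv_mul, one_mul] at h2
      have h3 : b.1.1.map e = ((N b : F)⁻¹ * s) • (1 : Matn) := by
        rw [mul_smul, h2, smul_smul, inv_mul_cancel₀ (N b).ne_zero, one_smul]
      have hoff : ∀ i j, i ≠ j → b.1.1 i j = 0 := fun i j hij => e.injective (by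
        have := congrFun (congrFun h3 i) j
        simpa [Matrix.one_apply, hij] using this)
      have hdiag : ∀ i, b.1.1 i i = b.1.1 0 0 := fun i => e.injective (by
        have e1 := congrFun (congrFun h3 i) i
        have e2 := congrFun (congrFun h3 0) 0
        simp only [Matrix.map_apply, Matrix.smul_apply, Matrix.one_apply_eq] at e1 e2
        rw [e1, e2])
      have h00 : b.1.1 0 0 ≠ 0 := fun h0 => Units.ne_zero b.1 (Matrix.ext fun i j => by
        rcases eq_or_ne i j with rfl | hij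
        · rw [hdiag, h0]; rfl
        · rw [hoff i j hij]; rfl)
      refine ⟨Units.mk0 _ h00, Units.ext ?_⟩
      rw [AutPSL.scalar_val]
      ext i j
      rcases eq_or_ne i j with rfl | hij
      · simp [hdiag i]
      · simp [hij, hoff i j hij]
    · rintro ⟨c, hc⟩
      show (conjPSU (H b) : MulAut PSUn) = 1
      refine Eq.trans ?_ (map_one conjPSUHom)
      have hmap : b.1.1.map e = e c • (1 : Matn) := by
        rw [hc, AutPSL.scalar_val]
        ext i j
        rcases eq_or_ne i j with rfl | hij <;> simp [*]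
      exact hprop one_ne_zero (B := a.1) (s := N b * e c)
        (by rw [hH2 b, hmap, Matrix.mul_smul, mul_one, smul_smul]) (by rw [one_smul]; exact one_mul _)
  rw [← hrange]
  exact ⟨((QuotientGroup.quotientKerEquivRange ρ).symm.trans (QuotientGroup.quotientMulEquivOfEq hker)).trans
    f.symm⟩

include hF hn hx in
/-- Every involutory graph automorphism descends. -/
theorem exists_desc {γ : MulAut PSUn} (hγ : Cfsg.IsGraphAutClassPSU γ) (hγ2 : orderOf γ = 2) :
    ∃ (g : GUn) (M : GL (Fin n) F₀), γ = ugamma σ g ∧ Desc σ e g M ∧ (M.1ᵀ = M.1 ∨ M.1ᵀ = -M.1) := by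
  obtain ⟨-, δ, φ, τ, hev, hδ, hφ, rfl⟩ := hγ
  obtain ⟨g, rfl⟩ := isInnerDiagonal_iff.1 hδ
  rw [isFieldAutOf_iff] at hφ
  subst hφ
  have hsq : (conjPSU g * mapPSU τ : MulAut PSUn) ^ 2 = 1 := by rw [← hγ2, pow_orderOf_eq_one]
  rw [pow_two, twist_twist] at hsq
  have key : (∃ c : F, gmat (g * mapGU τ g) = Matrix.scalar (Fin n) c) ∧ τ * τ = 1 := by
    obtain ⟨m, rfl⟩ : ∃ m, n = m + 2 := ⟨n - 2, by omega⟩
    exact eq_one_of_conj_map_eq_one hF (by omega) hsq
  obtain ⟨⟨c, hc⟩, hτ2⟩ := key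
  have hτ : orderOf τ = 2 := by
    refine orderOf_eq_prime (by rw [pow_two]; exact hτ2) fun h1 => ?_
    rw [h1, orderOf_one] at hev
    exact Nat.not_even_one hev
  obtain ⟨p, k, hp, -, hk, hq⟩ := exists_char hF
  haveI := Fact.mk hp
  have hστ : τ = σ := AutPSL.involution_unique (f := 2 * k) (p := p)
    (by rw [hF, hq, ← pow_mul, mul_comm]) (by omega) hτ hx.ord
  subst hστ
  have hgg : gmat g * (gmat g).map τ = c • (1 : Matn) := by
    rw [Matrix.smul_one_eq_diagonal]; exact hc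
  -- `g = c • gᵀ`
  have hgt : gmat g = c • (gmat g)ᵀ := by
    have hu : (gmat g).map τ * (gmat g)ᵀ = 1 := mul_eq_one_comm.1 (hx.gmat_eq g)
    calc gmat g = gmat g * ((gmat g).map τ * (gmat g)ᵀ) := by rw [hu, mul_one]
      _ = _ := by rw [← mul_assoc, hgg, Matrix.smul_mul, one_mul]
  have hc2 : c * c = 1 := by
    have h1 : gmat g = (c * c) • gmat g := by
      conv_lhs => rw [hgt]
      conv_lhs => arg 2; rw [hgt, transpose_smul, transpose_transpose]
      rw [smul_smul]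
    exact (smul_matrix_left_cancel (gmat_ne_zero g) ((one_smul F _).trans h1)).symm
  have hcfix : τ c = c := by
    rcases mul_self_eq_one_iff.1 hc2 with h | h <;> subst h <;> simp
  have hc0 : c ≠ 0 := fun h => by rw [h, zero_mul] at hc2; exact zero_ne_one hc2
  obtain ⟨lam, hl⟩ := hx.exists_norm hc0 hcfix
  let g' : GL (Fin n) F := Matrix.GeneralLinearGroup.scalar (Fin n) lam⁻¹ * g.1
  have hg'v : g'.1 = ((lam⁻¹ : Fˣ) : F) • gmat g := AutPSL.scalar_mul_val _ _
  obtain ⟨a, ha⟩ := AutPSL.exists_gl_descent hx.ord two_pos (h := g') (Units.ext (by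
    show (g' * AutPSL.glAut τ (g' * AutPSL.glAut τ 1)).1 = 1
    rw [map_one, mul_one, Units.val_mul, AutPSL.coe_glAut, hg'v]
    rw [show (((lam⁻¹ : Fˣ) : F) • gmat g).map τ = τ ((lam⁻¹ : Fˣ) : F) • (gmat g).map τ from
      map_smul_matrix τ _ _, Matrix.smul_mul, Matrix.mul_smul, hgg, smul_smul, smul_smul,
      Units.val_inv_eq_inv_val, map_inv₀, ← mul_inv, hl, inv_mul_cancel₀ hc0, one_smul]))
  have haeq : gmat g * a.1.map τ = (lam : F) • a.1 := by
    have h1 := congrArg Units.val ha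
    rw [Units.val_mul, AutPSL.coe_glAut, hg'v, Matrix.smul_mul] at h1
    conv_rhs => rw [← h1]
    rw [smul_smul, Units.val_inv_eq_inv_val, mul_inv_cancel₀ lam.ne_zero, one_smul]
  -- the Gram matrix
  set X : Matn := a.1ᵀ * a.1.map τ with hX
  have hXt : Xᵀ = X.map τ := by
    rw [hX, transpose_mul, transpose_transpose, Matrix.map_mul, hx.map_map, ← transpose_map]
  have hXc : X.map τ = c • X := by
    have h1 : (gmat g * a.1.map τ)ᵀ * (gmat g * a.1.map τ).map τ = (a.1.map τ)ᵀ * a.1 := by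
      rw [transpose_mul, Matrix.map_mul, hx.map_map, mul_assoc, ← mul_assoc (gmat g)ᵀ, hx.gmat_eq, one_mul]
    rw [haeq, transpose_smul, show ((lam : F) • a.1).map τ = τ (lam : F) • a.1.map τ from
      map_smul_matrix τ _ _, Matrix.smul_mul, Matrix.mul_smul, smul_smul, hl, ← hX] at h1
    rw [hX, Matrix.map_mul, hx.map_map, transpose_map, ← h1]
  obtain ⟨δ, hδ⟩ := hx.exists_div (ε := c) (by rw [hcfix, hc2])
  obtain ⟨B, hB⟩ := hx.exists_descend (A := ((δ : F)⁻¹) • X) (by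
    rw [show (((δ : F)⁻¹) • X).map τ = τ ((δ : F)⁻¹) • X.map τ from map_smul_matrix τ _ _, hXc,
      smul_smul, map_inv₀, hδ]
    congr 1
    field_simp)
  have hXB : X = (δ : F) • B.map e := by rw [hB, smul_smul, mul_inv_cancel₀ δ.ne_zero, one_smul]
  have hXu : IsUnit X.det := (Matrix.GeneralLinearGroup.det
    ((AutPSL.invTrGL a)⁻¹ * AutPSL.glAut τ a)).isUnit
  have hdetB : B.det ≠ 0 := fun h0 => hXu.ne_zero (by
    rw [hXB, Matrix.det_smul, ← RingHom.mapMatrix_apply, ← RingHom.map_det, h0, map_zero, mul_zero])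
  refine ⟨g, Matrix.GeneralLinearGroup.mkOfDetNeZero B hdetB, rfl, ⟨a, lam, δ, haeq, hXB⟩, ?_⟩
  have hBt : (Bᵀ).map e = c • B.map e := by
    refine smul_right_injective Matn δ.ne_zero ?_
    show (δ : F) • (Bᵀ).map e = (δ : F) • (c • B.map e)
    rw [transpose_map, ← transpose_smul, ← hXB, hXt, hXc, hXB, smul_comm]
  rcases mul_self_eq_one_iff.1 hc2 with h | h
  · left
    refine Matrix.map_injective e.injective ?_
    show (Bᵀ).map e = B.map e
    rw [hBt, h, one_smul]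
  · right
    refine Matrix.map_injective e.injective ?_
    show (Bᵀ).map e = (-B).map e
    rw [hBt, h]
    ext i j
    simp

include hF hn hx in
/-- Every symmetric or skew matrix over `F₀` is realised. -/
theorem exists_of_matrix (M : GL (Fin n) F₀) (hM : M.1ᵀ = M.1 ∨ M.1ᵀ = -M.1) :
    ∃ g : GUn, Desc σ e g M ∧ Cfsg.IsGraphAutClassPSU (ugamma σ g : MulAut PSUn) ∧
      orderOf (ugamma σ g : MulAut PSUn) = 2 := by
  obtain ⟨c, hc, hMc⟩ : ∃ c : F, c * c = 1 ∧ (M.1ᵀ).map e = c • M.1.map e := by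
    rcases hM with h | h
    · exact ⟨1, one_mul 1, by rw [h, one_smul]⟩
    · exact ⟨-1, by ring, by rw [h]; ext i j; simp⟩
  have hcfix : σ c = c := by rcases mul_self_eq_one_iff.1 hc with h | h <;> subst h <;> simp
  have hc0 : c ≠ 0 := fun h => by rw [h, zero_mul] at hc; exact zero_ne_one hc
  obtain ⟨δ, hδ⟩ := hx.exists_div (ε := c) (by rw [hcfix, hc])
  let H : GL (Fin n) F := Matrix.GeneralLinearGroup.scalar (Fin n) δ * Matrix.GeneralLinearGroup.map e M
  have hHv : H.1 = (δ : F) • M.1.map e := AutPSL.scalar_mul_val _ _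
  obtain ⟨b, hb⟩ := AutPSL.exists_eq_mul_conjTranspose hx.ord H (fun i j => by
    have h1 := congrFun (congrFun hMc i) j
    simp only [hHv, Matrix.smul_apply, Matrix.map_apply, transpose_apply, smul_eq_mul, map_mul, hδ,
      hx.apply_e] at h1 ⊢
    rw [h1]
    linear_combination (δ : F) * e (M.1 i j) * hc)
  let a : GL (Fin n) F := (AutPSL.invTrGL b)⁻¹
  have ha : a.1 = b.1ᵀ := AutPSL.coe_invTrGL_inv b
  have hgram : a.1ᵀ * a.1.map σ = (δ : F) • M.1.map e := by
    rw [← hHv, hb, ha, transpose_transpose, transpose_map]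
  obtain ⟨lam, hl⟩ := hx.exists_norm hc0 hcfix
  let g₀ : GL (Fin n) F := Matrix.GeneralLinearGroup.scalar (Fin n) lam * (a * (AutPSL.glAut σ a)⁻¹)
  have hg₀ : g₀.1 * a.1.map σ = (lam : F) • a.1 := by
    rw [AutPSL.scalar_mul_val, Matrix.smul_mul, ← AutPSL.coe_glAut, ← Units.val_mul, inv_mul_cancel_right]
  have hu : ∀ X Y : Matn, X * a.1 = Y * a.1 → X = Y := fun X Y hXY => by
    have h1 := congrArg (fun Z => Z * (a⁻¹).1) hXY
    simpa [mul_assoc] using h1
  have hmem : g₀ ∈ Cfsg.GU n F q := by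
    rw [hx.mem_GU_iff]
    have hu' : ∀ X Y : Matn, (a.1.map σ)ᵀ * X = (a.1.map σ)ᵀ * Y → X = Y := fun X Y hXY => by
      have haσ : ((a⁻¹).1.map σ)ᵀ * (a.1.map σ)ᵀ = 1 := by
        rw [← transpose_mul, ← Matrix.map_mul, Units.mul_inv, Matrix.map_one _ (map_zero σ) (map_one σ),
          transpose_one]
      have h1 := congrArg (fun Z => ((a⁻¹).1.map σ)ᵀ * Z) hXY
      simp only [← mul_assoc, haσ, one_mul] at h1
      exact h1
    refine hu' _ _ (hu _ _ ?_)
    rw [mul_one]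
    calc (a.1.map σ)ᵀ * (g₀.1ᵀ * g₀.1.map σ) * a.1
        = (g₀.1 * a.1.map σ)ᵀ * (g₀.1 * a.1.map σ).map σ := by
          rw [transpose_mul, Matrix.map_mul, hx.map_map]; simp only [mul_assoc]
      _ = c • (a.1ᵀ * a.1.map σ) := by
          rw [hg₀, transpose_smul, show ((lam : F) • a.1).map σ = σ (lam : F) • a.1.map σ from
            map_smul_matrix σ _ _, Matrix.smul_mul, Matrix.mul_smul, smul_smul, hl]
      _ = _ := by
          rw [← transpose_map, show (a.1ᵀ).map σ * a.1 = (a.1ᵀ * a.1.map σ).map σ by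
            rw [Matrix.map_mul, hx.map_map], hgram,
            show ((δ : F) • M.1.map e).map σ = σ (δ : F) • (M.1.map e).map σ from
              map_smul_matrix σ _ _, hx.map_e, hδ, smul_smul]
  let g : GUn := ⟨g₀, hmem⟩
  refine ⟨g, ⟨a, lam, δ, hg₀, hgram⟩, ⟨hn, conjPSU g, mapPSU σ, σ, by rw [hx.ord]; exact even_two,
    isInnerDiagonal_iff.2 ⟨g, rfl⟩, isFieldAutOf_iff.2 rfl, rfl⟩, orderOf_eq_prime ?_ ?_⟩
  · have hgg : gmat g * (gmat g).map σ = c • (1 : Matn) := by
      refine hu _ _ ?_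
      calc gmat g * (gmat g).map σ * a.1 = gmat g * (gmat g * a.1.map σ).map σ := by
            rw [Matrix.map_mul, hx.map_map, mul_assoc]
        _ = _ := by
            rw [show gmat g * a.1.map σ = (lam : F) • a.1 from hg₀,
              show ((lam : F) • a.1).map σ = σ (lam : F) • a.1.map σ from map_smul_matrix σ _ _,
              Matrix.mul_smul, show gmat g * a.1.map σ = (lam : F) • a.1 from hg₀, smul_smul, mul_comm, hl,
              Matrix.smul_mul, one_mul]
    rw [ugamma_sq, conjPSU_eq_one_of_scalar (c := c) (by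
      show gmat g * (gmat g).map σ = _
      rw [hgg, Matrix.smul_one_eq_diagonal, Matrix.scalar_apply]), one_mul]
    rw [show σ * σ = 1 from RingEquiv.ext hx.sq]
    exact mapPSU_refl
  · intro h1
    obtain ⟨m, rfl⟩ : ∃ m, n = m + 2 := ⟨n - 2, by omega⟩
    have := (eq_one_of_conj_map_eq_one hF (by omega) h1).2
    have hord := hx.ord
    rw [this, orderOf_one] at hord
    omega

end CfsgLib.AutPSU
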