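import Cfsg.Agent.AutPSU.Graph
import Cfsg.Agent.AutPSL.GraphCount

/-!
# Split counts of involutory graph automorphisms of `PSU_n(q)`

The class of `conj g * (x ↦ x ^ q)` splits according to the determinants of the unitary matrices
centralising it, a subgroup of the norm-one units computed from the similitudes of the descended matrix.
-/

set_option autoImplicit false

namespace CfsgLib.AutPSU

open Matrix CfsgLib.Unitary
open scoped MatrixGroups

variable {F F₀ : Type*} [Field F] [Field F₀] {n q : ℕ}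

set_option quotPrecheck false in
local notation "GUn" => ↥(Cfsg.GU n F q)
local notation "PSUn" => Cfsg.PSU n F q

variable (F q) in
/-- The norm-one units. -/
abbrev normOne : Subgroup Fˣ := (powMonoidHom (q + 1) : Fˣ →* Fˣ).ker

theorem mem_normOne {u : Fˣ} : u ∈ normOne F q ↔ (u : F) ^ (q + 1) = 1 := by
  rw [MonoidHom.mem_ker, powMonoidHom_apply, Units.ext_iff, Units.val_pow_eq_pow_val, Units.val_one]

variable [Fintype F]

theorem card_normOne (hF : Fintype.card F = q ^ 2) : Nat.card (normOne F q) = q + 1 := by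
  rw [IsCyclic.card_powMonoidHom_ker, card_units_eq hF]
  exact Nat.gcd_eq_right (dvd_mul_left _ _)

/-- The determinant with values in the norm-one units. -/
noncomputable def detOne (hF : Fintype.card F = q ^ 2) : GUn →* normOne F q :=
  detGU.codRestrict _ fun g => mem_normOne.2 (by simpa [detGU] using det_pow_succ_eq_one hF g.2)

theorem coe_detOne (hF : Fintype.card F = q ^ 2) (h : GUn) :
    ((detOne hF h : Fˣ) : F) = (gmat h).det := rfl

variable {σ : RingAut F} {e : F₀ →+* F}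

theorem QExt.normOne_iff (hx : QExt q σ e) {u : Fˣ} : u ∈ normOne F q ↔ (u : F) * σ (u : F) = 1 := by
  rw [mem_normOne, hx.frob, pow_succ']

variable [NeZero n]

/-- The determinants of the centralizer of `ugamma σ g`. -/
noncomputable def stabDet (hF : Fintype.card F = q ^ 2) (σ : RingAut F) (g : ↥(Cfsg.GU n F q)) :
    Subgroup (normOne F q) :=
  ((Subgroup.centralizer {(ugamma σ g : MulAut (Cfsg.PSU n F q))}).comap conjPSUHom).map (detOne hF)

variable (hF : Fintype.card F = q ^ 2) (hn : 3 ≤ n) (hx : QExt q σ e)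
  {g : ↥(Cfsg.GU n F q)} {M : GL (Fin n) F₀}

omit [Field F₀] in
theorem mem_stabDet {u : normOne F q} :
    u ∈ stabDet hF σ g ↔ ∃ h : GUn, conjPSU h * ugamma σ g = ugamma σ g * conjPSU h ∧ detOne hF h = u := by
  simp [stabDet, Subgroup.mem_map, Subgroup.mem_centralizer_singleton_iff]

include hn in
theorem ugamma_splitCount :
    Cfsg.splitClassCount (Cfsg.inndiagPSU n F q) (Cfsg.Inn PSUn) (ugamma σ g) =
      (stabDet hF σ g).index := by
  classical
  rw [inndiag_eq_range, Subgroup.index_eq_card]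
  have hnorm : (Cfsg.Inn PSUn).Normal := Cfsg.innNormal _
  refine AutPSL.splitClassCount_eq_card conjPSUHom _ (fun a k hk => hnorm.conj_mem k hk _) _
    ((QuotientGroup.mk' (stabDet hF σ g)).comp (detOne hF)) (fun y => ?_) fun a => ?_
  · obtain ⟨⟨u, hu⟩, rfl⟩ := QuotientGroup.mk_surjective y
    obtain ⟨h, hh⟩ : u ∈ (detGU : GUn →* Fˣ).range := by rw [range_detGU hF (by omega)]; exact hu
    exact ⟨h, congrArg QuotientGroup.mk (Subtype.ext hh)⟩
  rw [MonoidHom.comp_apply, QuotientGroup.mk'_apply, QuotientGroup.eq_one_iff, mem_stabDet]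
  constructor
  · rintro ⟨h, hh, hd⟩
    have hker : a * h⁻¹ ∈ (suToGU : ↥(Cfsg.SU n F q) →* GUn).range := by
      rw [← ker_detGU, MonoidHom.mem_ker, map_mul, map_inv, mul_inv_eq_one]
      exact (congrArg Subtype.val hd).symm
    obtain ⟨s, hs⟩ := hker
    refine ⟨conjPSUHom (a * h⁻¹), hs ▸ ⟨QuotientGroup.mk s, (conjPSU_suToGU s).symm⟩, ?_⟩
    have e1 : (conjPSUHom h)⁻¹ * ugamma σ g * conjPSUHom h = (ugamma σ g : MulAut PSUn) := by
      rw [mul_assoc, show ugamma σ g * conjPSUHom h = conjPSUHom h * ugamma σ g from hh.symm, inv_mul_cancel_left]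
    rw [map_mul, map_inv, _root_.mul_inv_rev, inv_inv]
    conv_lhs => rw [← e1]
    simp only [mul_assoc]
  · rintro ⟨k, ⟨x, rfl⟩, he⟩
    obtain ⟨s, rfl⟩ := QuotientGroup.mk_surjective x
    rw [← conjPSU_suToGU] at he
    refine ⟨(suToGU s)⁻¹ * a, ?_, ?_⟩
    · rw [conjPSU, map_mul, map_inv]
      calc (conjPSU (suToGU s))⁻¹ * conjPSU a * ugamma σ g
          = (conjPSU (suToGU s))⁻¹ * (conjPSU a * ugamma σ g * (conjPSU a)⁻¹) * conjPSU a := by group
        _ = _ := by rw [he]; group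
    · refine Subtype.ext ?_
      have h1 : suToGU s ∈ (detGU : GUn →* Fˣ).ker := by rw [ker_detGU]; exact ⟨s, rfl⟩
      show detGU ((suToGU s)⁻¹ * a) = detGU a
      rw [map_mul, map_inv, MonoidHom.mem_ker.1 h1, inv_one, one_mul]

include hn hx in
/-- A centralising element gives a similitude. -/
theorem exists_sim_of_mem_stabDet (d : Desc σ e g M) {u : normOne F q} (hu : u ∈ stabDet hF σ g) :
    ∃ (ν : Fˣ) (b : GL (Fin n) F₀) (c : F₀ˣ), b.1ᵀ * M.1 * b.1 = (c : F₀) • M.1 ∧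
      (ν : F) * σ ν * e c = 1 ∧ ((u : Fˣ) : F) = (ν : F) ^ n * e b.1.det := by
  obtain ⟨h, hh, rfl⟩ := (mem_stabDet hF).1 hu
  obtain ⟨a, l, μ, d⟩ := descData_iff.1 d
  obtain ⟨ν, b, c, hb, hha, hμ⟩ :=
    exists_sim_of_rel hx d d ((conj_eq_iff hF hn h g g).1 (mul_inv_eq_iff_eq_mul.2 hh))
  refine ⟨ν, b, c, hb, ?_, ?_⟩
  · refine mul_left_cancel₀ μ.ne_zero ?_
    linear_combination -hμ
  · rw [coe_detOne]
    have h1 := congrArg Matrix.det hha
    rw [det_mul, det_smul, det_mul, Fintype.card_fin, ← RingHom.mapMatrix_apply, ← RingHom.map_det] at h1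
    refine mul_right_cancel₀ (AutPSL.det_ne_zero_GL a) ?_
    linear_combination h1

include hn hx in
/-- A similitude gives a centralising element. -/
theorem mem_stabDet_of_sim (d : Desc σ e g M) {ν : Fˣ} {b : GL (Fin n) F₀} {c : F₀ˣ}
    (hb : b.1ᵀ * M.1 * b.1 = (c : F₀) • M.1) (hν : (ν : F) * σ ν * e c = 1) {u : normOne F q}
    (hu : ((u : Fˣ) : F) = (ν : F) ^ n * e b.1.det) : u ∈ stabDet hF σ g := by
  obtain ⟨a, l, μ, d⟩ := descData_iff.1 d
  obtain ⟨h, ν₀, hr, hha, hμ⟩ := exists_rel_of_sim hx d d hb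
  have hN0 : (ν₀ : F) * σ ν₀ * e c = 1 := by
    refine mul_left_cancel₀ μ.ne_zero ?_
    linear_combination -hμ
  have hec : e (c : F₀) ≠ 0 := (map_ne_zero e).2 c.ne_zero
  have hz : ((ν : F) / ν₀) ^ (q + 1) = 1 := by
    rw [pow_succ', ← hx.frob, map_div₀, div_mul_div_comm]
    exact (div_eq_one_iff_eq (mul_ne_zero ν₀.ne_zero ((map_ne_zero σ).2 ν₀.ne_zero))).2
      (mul_right_cancel₀ hec (hν.trans hN0.symm))
  let z : GUn := diagGU (fun _ => (ν : F) / ν₀) (fun _ => hz)
  have hzm : gmat z = Matrix.scalar (Fin n) ((ν : F) / ν₀) := by rw [Matrix.scalar_apply]; rfl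
  refine (mem_stabDet hF).2 ⟨z * h, ?_, ?_⟩
  · rw [conjPSU, map_mul, show conjPSUHom z = (1 : MulAut PSUn) from conjPSU_eq_one_of_scalar hzm, one_mul]
    exact mul_inv_eq_iff_eq_mul.1 ((conj_eq_iff hF hn h g g).2 hr)
  · refine Subtype.ext (Units.ext ?_)
    rw [coe_detOne, hu]
    show (gmat z * gmat h).det = _
    have h1 := congrArg Matrix.det hha
    rw [det_mul, det_smul, det_mul, Fintype.card_fin, ← RingHom.mapMatrix_apply, ← RingHom.map_det] at h1
    have h2 : (gmat h).det = (ν₀ : F) ^ n * e b.1.det := by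
      refine mul_right_cancel₀ (AutPSL.det_ne_zero_GL a) ?_
      linear_combination h1
    rw [det_mul, h2, hzm, Matrix.scalar_apply, det_diagonal, Finset.prod_const, Finset.card_univ,
      Fintype.card_fin, div_pow]
    have := pow_ne_zero n ν₀.ne_zero
    field_simp

include hF hn hx in
theorem index_powRange (k : ℕ) : (powMonoidHom k : normOne F q →* normOne F q).range.index =
    Nat.gcd (q + 1) k := by
  rw [IsCyclic.index_powMonoidHom_range, card_normOne hF]

include hn hx in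
theorem pow_mem_stabDet (d : Desc σ e g M) :
    (powMonoidHom n : normOne F q →* normOne F q).range ≤ stabDet hF σ g := by
  rintro _ ⟨z, rfl⟩
  refine mem_stabDet_of_sim hF hn hx d (ν := z.1) (b := 1) (c := 1) (by simp) ?_ ?_
  · rw [Units.val_one, map_one, mul_one]
    exact hx.normOne_iff.1 z.2
  · simp

include hF hn hx in
/-- Split count when `n` is odd or the characteristic is two. -/
theorem splitCount_easy [Fintype F₀] (d : Desc σ e g M) (hcase : Odd n ∨ CharP F₀ 2) :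
    Cfsg.splitClassCount (Cfsg.inndiagPSU n F q) (Cfsg.Inn PSUn) (ugamma σ g) = Nat.gcd n (q + 1) := by
  rw [ugamma_splitCount hF hn, Nat.gcd_comm, ← index_powRange (σ := σ) (e := e) hF hn hx]
  congr 1
  refine le_antisymm (fun u hu => ?_) (pow_mem_stabDet hF hn hx d)
  obtain ⟨ν, b, c, hb, hν, hu'⟩ := exists_sim_of_mem_stabDet hF hn hx d hu
  set bt := (AutPSL.invTrGL b)⁻¹
  have h1 := AutPSL.det_sq_of_sim (h := M) (a := bt) (c := c)
    (by rw [AutPSL.coe_invTrGL_inv, transpose_transpose, hb])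
  have hdet : (Matrix.GeneralLinearGroup.det bt : F₀) = b.1.det := by
    rw [Matrix.GeneralLinearGroup.val_det_apply, AutPSL.coe_invTrGL_inv, det_transpose]
  have h2 := congrArg Units.val h1
  simp only [Units.val_pow_eq_pow_val, hdet] at h2
  obtain ⟨t, htc, htd⟩ : ∃ t : F₀, t ^ 2 = c ∧ t ^ n = b.1.det := by
    rcases hcase with ⟨m, hm⟩ | hchar
    · have hc0 : (c : F₀) ^ m ≠ 0 := pow_ne_zero _ c.ne_zero
      have h3 : b.1.det ^ 2 = (c : F₀) ^ (2 * m + 1) := h2.trans (congrArg ((c : F₀) ^ ·) hm)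
      have e1 : (b.1.det / (c : F₀) ^ m) ^ 2 = c := by
        rw [div_pow, h3, pow_succ, ← pow_mul, mul_comm m 2]
        exact mul_div_cancel_left₀ _ (pow_ne_zero _ c.ne_zero)
      refine ⟨b.1.det / (c : F₀) ^ m, e1, ?_⟩
      rw [congrArg ((b.1.det / (c : F₀) ^ m) ^ ·) hm, pow_succ, pow_mul, e1, mul_div_cancel₀ _ hc0]
    · haveI := hchar
      obtain ⟨s, hs⟩ := AutPSL.exists_sqrt (c : F₀)
      refine ⟨s, hs, AutPSL.sq_inj' ?_⟩
      rw [h2, ← hs, ← pow_mul, ← pow_mul, mul_comm]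
  have ht0 : t ≠ 0 := fun h0 => c.ne_zero (by rw [← htc, h0, zero_pow two_ne_zero])
  refine ⟨⟨ν * Units.mk0 (e t) ((map_ne_zero e).2 ht0), hx.normOne_iff.2 ?_⟩, Subtype.ext (Units.ext ?_)⟩
  · rw [Units.val_mul, Units.val_mk0, map_mul, hx.apply_e, ← hν, ← htc, map_pow]
    ring
  · show (((ν * Units.mk0 (e t) _) ^ n : Fˣ) : F) = _
    rw [Units.val_pow_eq_pow_val, Units.val_mul, Units.val_mk0, hu', mul_pow, ← map_pow, htd]

/-- The square of the multiplier data, as a norm-one unit. -/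
theorem normOne_sq (hx : QExt q σ e) {ν : Fˣ} {c : F₀ˣ} (hν : (ν : F) * σ ν * e c = 1) :
    ν * ν * Units.map e.toMonoidHom c ∈ normOne F q := by
  rw [hx.normOne_iff]
  show (ν : F) * ν * e c * σ ((ν : F) * ν * e c) = 1
  rw [map_mul, map_mul, hx.apply_e]
  linear_combination ((ν : F) * σ ν * e c + 1) * hν

theorem normOne_zpow_val {m : ℕ} (hnm : n = 2 * m) {ν : Fˣ} {c : F₀ˣ} :
    (ν : F) ^ n * e ((c : F₀) ^ m) = ((ν * ν * Units.map e.toMonoidHom c) ^ m : Fˣ) := by
  rw [congrArg ((ν : F) ^ ·) hnm, Units.val_pow_eq_pow_val, map_pow, pow_mul, ← mul_pow, pow_two]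
  rfl

include hx in
theorem exists_nu (z : normOne F q) : ∃ (ν : Fˣ) (c : F₀ˣ),
    (ν : F) * σ ν * e c = 1 ∧ ν * ν * Units.map e.toMonoidHom c = z.1 := by
  obtain ⟨m, hm⟩ := hx.exists_div (hx.normOne_iff.1 z.2)
  -- `σ m = z m`
  set ν : Fˣ := z.1 * m
  have hνσ : σ (ν : F) = m := by
    rw [Units.val_mul, map_mul, hm, ← mul_assoc, mul_comm (σ ((z.1 : Fˣ) : F)), hx.normOne_iff.1 z.2, one_mul]
  obtain ⟨y, hy⟩ := (hx.fix _).1 (show σ ((ν : F) * m)⁻¹ = ((ν : F) * m)⁻¹ by
    rw [map_inv₀, map_mul, hνσ, hm, ← Units.val_mul z.1 m, mul_comm])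
  have hy0 : y ≠ 0 := fun h0 => by
    rw [h0, map_zero, eq_comm, inv_eq_zero, mul_eq_zero] at hy
    exact hy.elim ν.ne_zero m.ne_zero
  refine ⟨ν, Units.mk0 y hy0, ?_, Units.ext ?_⟩
  · rw [hνσ, Units.val_mk0, hy, mul_inv_cancel₀ (mul_ne_zero ν.ne_zero m.ne_zero)]
  · show (ν : F) * ν * e y = _
    rw [hy, show (ν : F) = (z.1 : F) * m from Units.val_mul _ _]
    have := m.ne_zero
    have := z.1.ne_zero
    field_simp

include hF hn hx in
/-- Split count in symplectic type. -/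
theorem splitCount_skew [Fintype F₀] {m : ℕ} (hnm : n = 2 * m) (h2 : (2 : F₀) ≠ 0) (d : Desc σ e g M)
    (hs : M.1ᵀ = -M.1) :
    Cfsg.splitClassCount (Cfsg.inndiagPSU n F q) (Cfsg.Inn PSUn) (ugamma σ g) = Nat.gcd m (q + 1) := by
  rw [ugamma_splitCount hF hn, Nat.gcd_comm, ← index_powRange (σ := σ) (e := e) hF hn hx]
  congr 1
  let ee : Fin m ⊕ Fin m ≃ Fin n := Fintype.equivFinOfCardEq (by simp; omega)
  obtain ⟨k, hk⟩ := (AutPSL.skew_type (by omega) ee M hs (AutPSL.skew_diag_zero h2 hs)).1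
  have hdet : ∀ (b : GL (Fin n) F₀) (c : F₀ˣ), b.1ᵀ * M.1 * b.1 = (c : F₀) • M.1 → b.1.det = (c : F₀) ^ m := by
    intro b c hb
    set bt := (AutPSL.invTrGL b)⁻¹
    have ha : bt.1 * M.1 * bt.1ᵀ = (c : F₀) • M.1 := by
      rw [AutPSL.coe_invTrGL_inv, transpose_transpose, hb]
    have h1 := AutPSL.sim_transport hk bt _ ha
    set b' := (AutPSL.reindexGL ee).symm (k * bt * k⁻¹) with hb'
    have hgb : AutPSL.reindexGL ee b' = k * bt * k⁻¹ := (AutPSL.reindexGL ee).apply_symm_apply _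
    have h4 : b'.1 * Matrix.J (Fin m) F₀ * b'.1ᵀ = (c : F₀) • Matrix.J (Fin m) F₀ := by
      rw [← hgb, AutPSL.coe_reindexGL, AutPSL.coe_reindexGL, transpose_submatrix, submatrix_mul_equiv,
        submatrix_mul_equiv, ← AutPSL.submatrix_smul'] at h1
      exact (Matrix.reindex ee ee).injective h1
    have h5 : Matrix.GeneralLinearGroup.det (AutPSL.reindexGL ee b') = Matrix.GeneralLinearGroup.det b' :=
      Units.ext (AutPSL.det_reindexGL ee b')
    rw [hgb, AutPSL.det_conj, AutPSL.det_symp_sim h4] at h5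
    have h6 := congrArg Units.val h5
    rwa [Matrix.GeneralLinearGroup.val_det_apply, AutPSL.coe_invTrGL_inv, det_transpose,
      Units.val_pow_eq_pow_val] at h6
  refine le_antisymm (fun u hu => ?_) ?_
  · obtain ⟨ν, b, c, hb, hν, hu'⟩ := exists_sim_of_mem_stabDet hF hn hx d hu
    refine ⟨⟨_, normOne_sq hx hν⟩, Subtype.ext (Units.ext ?_)⟩
    rw [hu', hdet b c hb, normOne_zpow_val hnm]
    rfl
  · rintro _ ⟨z, rfl⟩
    obtain ⟨ν, c, hν, hz⟩ := exists_nu hx z
    have hs' : ((c : F₀) • M.1)ᵀ = -((c : F₀) • M.1) := by rw [transpose_smul, hs, smul_neg]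
    obtain ⟨a, ha⟩ := (AutPSL.skew_type (by omega) ee M hs (AutPSL.skew_diag_zero h2 hs)).1.trans
      ((AutPSL.skew_type (by omega) ee (Matrix.GeneralLinearGroup.scalar (Fin n) c * M)
        (by rw [AutPSL.scalar_mul_val]; exact hs')
        (by rw [AutPSL.scalar_mul_val]; exact AutPSL.skew_diag_zero h2 hs')).1.symm)
    rw [AutPSL.scalar_mul_val] at ha
    refine mem_stabDet_of_sim hF hn hx d (ν := ν) (b := (AutPSL.invTrGL a)⁻¹) (c := c)
      (by rw [AutPSL.coe_invTrGL_inv, transpose_transpose, ha]) hν ?_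
    rw [hdet _ c (by rw [AutPSL.coe_invTrGL_inv, transpose_transpose, ha]), normOne_zpow_val hnm, hz]
    rfl

include hF hn hx in
/-- Split count in orthogonal type, `n` even. -/
theorem splitCount_sym [Fintype F₀] {m : ℕ} (hnm : n = 2 * m) (h2 : (2 : F₀) ≠ 0) (d : Desc σ e g M)
    (hs : M.1ᵀ = M.1) :
    Cfsg.splitClassCount (Cfsg.inndiagPSU n F q) (Cfsg.Inn PSUn) (ugamma σ g) =
      Nat.gcd n (q + 1) / 2 := by
  have hmem : (-1 : Fˣ) ∈ normOne F q := by
    rw [mem_normOne, Units.val_neg, Units.val_one]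
    exact neg_one_pow_succ hF
  set ε : normOne F q := ⟨-1, hmem⟩
  have hne : (-1 : F) ≠ 1 := fun h => h2 (e.injective (by
    rw [map_ofNat, map_zero]; linear_combination -h))
  have hord : orderOf ε = 2 := orderOf_eq_prime (Subtype.ext (by simp [ε]))
    (fun h => hne (congrArg (fun x : normOne F q => ((x : Fˣ) : F)) h))
  have hsign : ∀ (b : GL (Fin n) F₀) (c : F₀ˣ), b.1ᵀ * M.1 * b.1 = (c : F₀) • M.1 →
      b.1.det = (c : F₀) ^ m ∨ b.1.det = -(c : F₀) ^ m := by
    intro b c hb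
    set bt := (AutPSL.invTrGL b)⁻¹
    have h1 := congrArg Units.val (AutPSL.det_sq_of_sim (h := M) (a := bt) (c := c)
      (by rw [AutPSL.coe_invTrGL_inv, transpose_transpose, hb]))
    simp only [Units.val_pow_eq_pow_val, Matrix.GeneralLinearGroup.val_det_apply, bt,
      AutPSL.coe_invTrGL_inv, det_transpose] at h1
    refine sq_eq_sq_iff_eq_or_eq_neg.1 (h1.trans ?_)
    rw [congrArg ((c : F₀) ^ ·) hnm, ← pow_mul, mul_comm 2 m]
  have hεS : ε ∈ stabDet hF σ g := by
    obtain ⟨k, hk⟩ := AutPSL.diag_congr (by omega : 2 ≤ n) h2 M hs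
    set D := AutPSL.firstDiag (F := F₀) (by omega : 2 ≤ n) (Matrix.GeneralLinearGroup.det M) with hD
    set R := AutPSL.firstDiag (F := F₀) (by omega : 2 ≤ n) (-1 : F₀ˣ) with hR
    have hdiag : R.1 * D.1 * R.1ᵀ = (1 : F₀) • D.1 := by
      rw [one_smul, show R.1ᵀ = R.1 from diagonal_transpose _, hR, hD, ← Units.val_mul, ← Units.val_mul,
        ← map_mul, ← map_mul]
      simp
    have h3 := AutPSL.sim_transport hk _ _ hdiag
    refine mem_stabDet_of_sim hF hn hx d (ν := 1) (b := (AutPSL.invTrGL (k * R * k⁻¹))⁻¹) (c := 1)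
      (by rw [AutPSL.coe_invTrGL_inv, transpose_transpose, h3, Units.val_one]) (by simp) ?_
    rw [AutPSL.coe_invTrGL_inv, det_transpose,
      ← Matrix.GeneralLinearGroup.val_det_apply, AutPSL.det_conj, hR, AutPSL.det_firstDiag]
    simp [ε]
  have hS : stabDet hF σ g = (powMonoidHom m : normOne F q →* normOne F q).range ⊔ Subgroup.zpowers ε := by
    refine le_antisymm (fun u hu => ?_) (sup_le ?_ (Subgroup.zpowers_le.2 hεS))
    · obtain ⟨ν, b, c, hb, hν, hu'⟩ := exists_sim_of_mem_stabDet hF hn hx d hu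
      rcases hsign b c hb with h | h
      · refine Subgroup.mem_sup_left ⟨⟨_, normOne_sq hx hν⟩, Subtype.ext (Units.ext ?_)⟩
        rw [hu', h, normOne_zpow_val hnm]
        rfl
      · have e1 : u = (⟨_, normOne_sq hx hν⟩ : normOne F q) ^ m * ε := Subtype.ext (Units.ext (by
          rw [hu', h, map_neg, mul_neg, normOne_zpow_val hnm]
          simp [ε]))
        rw [e1]
        exact Subgroup.mul_mem_sup ⟨_, rfl⟩ (Subgroup.mem_zpowers ε)
    · rintro _ ⟨z, rfl⟩
      obtain ⟨ν, c, hν, hz⟩ := exists_nu hx z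
      obtain ⟨a, ha⟩ := AutPSL.congr_of_isSquare_det h2 M (Matrix.GeneralLinearGroup.scalar (Fin n) c * M) hs
        (by rw [AutPSL.scalar_mul_val, transpose_smul, hs]) (by
          refine ⟨M.1.det * (c : F₀) ^ m, ?_⟩
          rw [AutPSL.scalar_mul_val, det_smul, Fintype.card_fin, congrArg ((c : F₀) ^ ·) hnm]
          ring)
      rw [AutPSL.scalar_mul_val] at ha
      set b := (AutPSL.invTrGL a)⁻¹
      have hb : b.1ᵀ * M.1 * b.1 = (c : F₀) • M.1 := by
        rw [AutPSL.coe_invTrGL_inv, transpose_transpose, ha]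
      rcases hsign b c hb with h | h
      · refine mem_stabDet_of_sim hF hn hx d hb hν ?_
        rw [h, normOne_zpow_val hnm, hz]
        rfl
      · have h3 : (powMonoidHom m z * ε) ∈ stabDet hF σ g := by
          refine mem_stabDet_of_sim hF hn hx d hb hν ?_
          rw [h, map_neg, mul_neg, normOne_zpow_val hnm, hz]
          simp [ε]
        have h4 := Subgroup.mul_mem _ h3 hεS
        rwa [mul_assoc, ← pow_two, ← hord, pow_orderOf_eq_one, mul_one] at h4
  rw [ugamma_splitCount hF hn, hS, AutPSL.index_pow_sup]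
  have h3 := (Subgroup.zpowers ε).index_mul_card
  rw [Nat.card_zpowers, hord, card_normOne hF] at h3
  rw [← h3, hnm, mul_comm 2 m, Nat.gcd_mul_right, Nat.mul_div_cancel _ two_pos]

end CfsgLib.AutPSU
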